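import Cfsg.Agent.KT.Orb

set_option autoImplicit false

/-! Counting classes of fixed-point-free elements along the tree, with an abstract potential. -/

namespace CL.KT

open Finset Equiv

/-- conditions on a pair of potentials -/
structure Pot (N : ℕ) (ok : ℕ → Prop) (Fo : Multiset ℕ → ℕ → ℝ) (Ff : Multiset ℕ → ℝ) : Prop where
  zero : 1 ≤ Ff 0
  nno : ∀ M d, 0 ≤ Fo M d
  nnf : ∀ M, 0 ≤ Ff M
  mo : ∀ (X Q : Multiset ℕ) (c : ℕ), c ∈ X → (∀ a ∈ X, ok a) → (∀ a ∈ Q, ok a) → ok Q.sum →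
    X.sum + Q.sum ≤ N → Fo (X + Q) c ≤ Fo (Q.sum ::ₘ X) c
  mf : ∀ X Q : Multiset ℕ, (∀ a ∈ X, ok a) → (∀ a ∈ Q, ok a) → ok Q.sum →
    X.sum + Q.sum ≤ N → Ff (X + Q) ≤ Ff (Q.sum ::ₘ X)
  one : ∀ R Q : Multiset ℕ, (∀ a ∈ R, ok a) → (∀ a ∈ Q, ok a) → ok (Q.sum + 1) →
    R.sum + (Q.sum + 1) ≤ N →
    (Q.map (Fo (Q + R))).sum + Ff (Q + R) ≤ Fo ((Q.sum + 1) ::ₘ R) (Q.sum + 1) ∧
    ((∀ a ∈ R, Q.sum + 1 ≤ a) → (Q.map (Fo (Q + R))).sum ≤ Ff ((Q.sum + 1) ::ₘ R))
  two : ∀ R Q C : Multiset ℕ, (∀ a ∈ R, ok a) → (∀ a ∈ Q, ok a) → (∀ a ∈ C, ok a) →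
    ok (Q.sum + 1) → C.sum = Q.sum + 1 → R.sum + 2 * (Q.sum + 1) ≤ N →
    (C.map (Fo (C + Q + R))).sum ≤ Fo ((Q.sum + 1) ::ₘ (Q.sum + 1) ::ₘ R) (Q.sum + 1) ∧
    ((∀ a ∈ R, Q.sum + 1 ≤ a) →
      (C.map (Fo (C + Q + R))).sum ≤ Ff ((Q.sum + 1) ::ₘ (Q.sum + 1) ::ₘ R))

variable {α : Type*} [Fintype α] [DecidableEq α] (S : Subgroup (Perm α))

open Classical in
/-- classes of fixed-point-free elements agreeing with `g` on `A` -/
noncomputable def Y (A : Finset α) (g : Perm α) : Finset (ConjClasses S) :=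
  (univ.filter (fun h : S => (∀ x, (h : Perm α) x ≠ x) ∧ ∀ a ∈ A, (h : Perm α) a = g a)).image
    ConjClasses.mk

theorem mem_Y {A : Finset α} {g : Perm α} {c : ConjClasses S} :
    c ∈ Y S A g ↔ ∃ h : S, ((∀ x, (h : Perm α) x ≠ x) ∧ ∀ a ∈ A, (h : Perm α) a = g a) ∧
      ConjClasses.mk h = c := by
  simp [Y]

/-- one step of the tree -/
theorem step {A : Finset α} {g : Perm α} {β z : α} (hg : g ∈ S) (hβ : β ∉ A)
    (hT : insert β A = insert z (A.image g)) (f : ℕ → ℝ) (hf : ∀ c, 0 ≤ f c) (b : ℝ) (hb : 0 ≤ b)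
    (hO : ∀ g₁ ∈ S, (∀ a ∈ A, g₁ a = g a) → g₁ β ∉ insert β A →
      ((Y S (insert β A) g₁).card : ℝ) ≤ f (O S (insert β A) (g₁ β)).card)
    (hF : ∀ g₁ ∈ S, (∀ a ∈ A, g₁ a = g a) → g₁ β = z → z ≠ β →
      ((Y S (insert β A) g₁).card : ℝ) ≤ b) :
    ((Y S A g).card : ℝ) ≤ ((parts S (insert β A) (O S (A.image g) (g β))).map f).sum + b := by
  classical
  set T := insert β A with hTdef
  set Γ := O S (A.image g) (g β) with hΓ
  have hBT : A.image g ⊆ T := hT ▸ subset_insert _ _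
  let Z : Finset α → Finset (ConjClasses S) := fun ω =>
    (univ.filter (fun h : S => ((∀ x, (h : Perm α) x ≠ x) ∧ ∀ a ∈ A, (h : Perm α) a = g a) ∧
      O S T ((h : Perm α) β) = ω)).image ConjClasses.mk
  have hZ : ∀ g₁ : S, (∀ a ∈ A, (g₁ : Perm α) a = g a) →
      Z (O S T ((g₁ : Perm α) β)) ⊆ Y S T g₁ := by
    intro g₁ hg₁ d hd
    obtain ⟨h, hh, rfl⟩ := mem_image.1 hd
    obtain ⟨-, ⟨hh0, hhA⟩, hhβ⟩ := mem_filter.1 hh
    have : (g₁ : Perm α) β ∈ O S T ((h : Perm α) β) := by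
      rw [hhβ]; exact self_mem_O S T _
    obtain ⟨u, hu, huT, hu1⟩ := (mem_O S).1 this
    have huT' : ∀ a ∈ T, u⁻¹ a = a := fun a ha => by
      rw [Perm.inv_eq_iff_eq]; exact (huT a ha).symm
    refine (mem_Y S).2 ⟨⟨u, hu⟩ * h * ⟨u, hu⟩⁻¹, ⟨fun x hx => ?_, fun a ha => ?_⟩, ?_⟩
    · simp only [Subgroup.coe_mul, Subgroup.coe_inv, Perm.mul_apply] at hx
      exact hh0 (u⁻¹ x) (by rw [Perm.eq_inv_iff_eq]; exact hx)
    · simp only [Subgroup.coe_mul, Subgroup.coe_inv, Perm.mul_apply, huT' a ha]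
      rcases mem_insert.1 ha with rfl | ha
      · exact hu1
      · rw [hhA a ha, hg₁ a ha, huT _ (hBT (mem_image_of_mem _ ha))]
    · exact (ConjClasses.mk_eq_mk_iff_isConj.2 (isConj_iff.2 ⟨(⟨u, hu⟩ : S), rfl⟩)).symm
  have hzT : z ∈ T := hT ▸ mem_insert_self _ _
  have hOz : ∀ y, O S T y = O S T z → y = z := by
    intro y hy
    have : y ∈ O S T z := hy ▸ self_mem_O S T y
    obtain ⟨u, -, huT, rfl⟩ := (mem_O S).1 this
    exact huT z hzT
  have hsub : Y S A g ⊆ ((Γ \ T).image (O S T)).biUnion Z ∪ Z (O S T z) := by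
    intro c hc
    obtain ⟨h, hh, rfl⟩ := (mem_Y S).1 hc
    have hm : ConjClasses.mk h ∈ Z (O S T ((h : Perm α) β)) :=
      mem_image_of_mem _ (mem_filter.2 ⟨mem_univ _, hh, rfl⟩)
    by_cases hx : (h : Perm α) β ∈ T
    · rw [hT] at hx
      rcases mem_insert.1 hx with hx | hx
      · rw [hx] at hm; exact mem_union_right _ hm
      · obtain ⟨a, ha, hx⟩ := mem_image.1 hx
        rw [← hh.2 a ha] at hx
        exact absurd ((h : Perm α).injective hx ▸ ha) hβ
    · refine mem_union_left _ (mem_biUnion.2 ⟨_, mem_image_of_mem _ (mem_sdiff.2 ⟨?_, hx⟩), hm⟩)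
      refine (mem_O S).2 ⟨h * g⁻¹, S.mul_mem h.2 (S.inv_mem hg), fun b hb => ?_, by simp⟩
      obtain ⟨a, ha, rfl⟩ := mem_image.1 hb
      simp [Perm.mul_apply, hh.2 a ha]
  have h1 : ((Z (O S T z)).card : ℝ) ≤ b := by
    rcases (Z (O S T z)).eq_empty_or_nonempty with h0 | ⟨c, hc⟩
    · rw [h0]; simpa using hb
    obtain ⟨g₁, hg₁, -⟩ := mem_image.1 hc
    obtain ⟨-, ⟨h0, hA⟩, hz⟩ := mem_filter.1 hg₁
    have hz' := hOz _ hz
    refine le_trans ?_ (hF g₁ g₁.2 hA hz' (hz' ▸ h0 β))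
    rw [← hz]
    exact_mod_cast card_le_card (hZ g₁ hA)
  have h2 : ∀ ω ∈ (Γ \ T).image (O S T), ((Z ω).card : ℝ) ≤ f ω.card := by
    intro ω hω
    rcases (Z ω).eq_empty_or_nonempty with h0 | ⟨c, hc⟩
    · rw [h0]; simpa using hf _
    obtain ⟨g₁, hg₁, -⟩ := mem_image.1 hc
    obtain ⟨-, ⟨h0, hA⟩, hz⟩ := mem_filter.1 hg₁
    obtain ⟨y, hy, rfl⟩ := mem_image.1 hω
    have hn : (g₁ : Perm α) β ∉ T :=
      not_mem_of_O S (mem_sdiff.1 hy).2 (hz ▸ self_mem_O S T _)
    rw [← hz]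
    refine le_trans ?_ (hO g₁ g₁.2 hA hn)
    exact_mod_cast card_le_card (hZ g₁ hA)
  have h3 : ((Y S A g).card : ℝ) ≤
      (∑ ω ∈ (Γ \ T).image (O S T), ((Z ω).card : ℝ)) + (Z (O S T z)).card := by
    exact_mod_cast (card_le_card hsub).trans ((card_union_le _ _).trans
      (Nat.add_le_add_right card_biUnion_le _))
  refine h3.trans (add_le_add ((sum_le_sum h2).trans (le_of_eq ?_)) h1)
  unfold parts
  rw [Multiset.map_map, sum_eq_multiset_sum]
  rfl

theorem apply_mem_O {A : Finset α} {g g₁ : Perm α} (hg : g ∈ S) (hg₁ : g₁ ∈ S)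
    (h : ∀ a ∈ A, g₁ a = g a) (β : α) : g₁ β ∈ O S (A.image g) (g β) := by
  refine (mem_O S).2 ⟨g₁ * g⁻¹, S.mul_mem hg₁ (S.inv_mem hg), fun b hb => ?_, by simp⟩
  obtain ⟨a, ha, rfl⟩ := mem_image.1 hb
  simp [Perm.mul_apply, h a ha]

theorem core {N : ℕ} {ok : ℕ → Prop} {Fo : Multiset ℕ → ℕ → ℝ} {Ff : Multiset ℕ → ℝ}
    (P : Pot N ok Fo Ff) (hok : ∀ A x, ok (O S A x).card)
    {A : Finset α} {g : Perm α} {β z : α} (hg : g ∈ S) (hβ : β ∉ A)
    (hT : insert β A = insert z (A.image g)) (hN : Fintype.card α - A.card ≤ N)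
    (ihF : ∀ g₁ ∈ S, (∀ a ∈ insert β A, g₁ a ∈ insert β A) →
      ((Y S (insert β A) g₁).card : ℝ) ≤ Ff (parts S (insert β A) univ))
    (ihO : ∀ g₁ ∈ S, ∀ γ, γ ∉ insert β A → γ ∈ (insert β A).image g₁ →
      (∀ a ∈ insert β A, g₁ a ∈ insert γ (insert β A)) →
      ((Y S (insert β A) g₁).card : ℝ) ≤ Fo (parts S (insert β A) univ) (O S (insert β A) γ).card) :
    ((Y S A g).card : ℝ) ≤ Fo (parts S A univ) (O S A β).card ∧
    (z = β → (∀ a ∈ parts S A univ, (O S A β).card ≤ a) →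
      ((Y S A g).card : ℝ) ≤ Ff (parts S A univ)) := by
  classical
  have hp : ∀ A D : Finset α, ∀ a ∈ parts S A D, ok a := fun A D a ha => by
    obtain ⟨x, -, -, rfl⟩ := (mem_parts S).1 ha
    exact hok _ _
  have hstep := fun b hb hF => step S hg hβ hT (Fo (parts S (insert β A) univ)) (P.nno _) b hb
    (fun g₁ h1 h2 h3 => ihO g₁ h1 _ h3 (mem_image_of_mem _ (mem_insert_self _ _)) (fun a ha => by
      rcases mem_insert.1 ha with rfl | ha
      · exact mem_insert_self _ _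
      · rw [h2 a ha, hT]
        exact mem_insert_of_mem (mem_insert_of_mem (mem_image_of_mem _ ha)))) hF
  have hclose : ∀ g₁ ∈ S, (∀ a ∈ A, g₁ a = g a) → g₁ β = z →
      ((Y S (insert β A) g₁).card : ℝ) ≤ Ff (parts S (insert β A) univ) := by
    intro g₁ h1 h2 h3
    refine ihF g₁ h1 fun a ha => ?_
    rw [hT]
    rcases mem_insert.1 ha with rfl | ha
    · rw [h3]; exact mem_insert_self _ _
    · rw [h2 a ha]; exact mem_insert_of_mem (mem_image_of_mem _ ha)
  have hmem := fun g₁ h1 h2 => apply_mem_O S (A := A) (g₁ := g₁) hg h1 h2 β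
  have hcB : (A.image g).card = A.card := card_image_of_injective _ g.injective
  have hdΓ : (O S (A.image g) (g β)).card = (O S A β).card := by
    rw [O_conj S hg, card_image_of_injective _ g.injective]
  have hdΔ : (O S (A.image g) z).card = (O S A β).card := by
    have h1 := card_K S A β
    have h2 := card_K S (A.image g) z
    rw [← hT, card_K_conj S hg, h1] at h2
    exact (Nat.eq_of_mul_eq_mul_right Nat.card_pos h2).symm
  have hgβ : g β ∉ A.image g := fun h => by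
    obtain ⟨a, ha, h⟩ := mem_image.1 h
    exact hβ (g.injective h ▸ ha)
  have hokd := hok A β
  rw [← parts_conj S hg]
  have hzB : z ∉ A.image g := by
    intro h
    have := congrArg card hT
    rw [card_insert_of_notMem hβ, insert_eq_of_mem h] at this
    omega
  set T := insert β A with hTdef
  set B := A.image g with hB
  set d := (O S A β).card with hd
  set Γ := O S B (g β) with hΓ
  set Δ := O S B z with hΔ
  have hBT : B ⊆ T := hT ▸ subset_insert _ _
  have hmT : ∀ x, x ∈ T ↔ x = z ∨ x ∈ B := fun x => by rw [hT, mem_insert]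
  have hΔB : ∀ x ∈ Δ, x ∉ B := fun x hx => not_mem_of_O S hzB hx
  have hΓB : ∀ x ∈ Γ, x ∉ B := fun x hx => not_mem_of_O S hgβ hx
  have hzΔ : z ∈ Δ := self_mem_O S B z
  have hQ : (parts S T Δ).sum + 1 = d := by
    rw [sum_parts S ((Cl_O S B z).mono hBT), ← hdΔ, ← card_erase_add_one hzΔ]
    congr 2
    ext x
    have := hΔB x
    simp only [mem_sdiff, hmT, mem_erase]
    tauto
  have hcU : (univ \ B).card = Fintype.card α - A.card := by
    rw [card_univ_sdiff, hcB]
  have hUc : Cl S B (univ \ B) := (Cl_univ S B).sdiff (Cl_self S B)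
  have hU1 : parts S B univ = parts S B (univ \ B) := parts_congr S (by simp)
  have hU2 : parts S T univ = parts S T (univ \ B) := parts_congr S (by
    ext x; have := @hBT x; simp only [mem_sdiff, mem_univ]; tauto)
  have hΔU : Δ ⊆ univ \ B := fun x hx => by simpa using hΔB x hx
  have hsumB : ∀ D : Finset α, Cl S B D → D ⊆ univ \ B → (parts S B D).sum = D.card := by
    intro D h1 h2
    rw [sum_parts S h1, sdiff_eq_self_of_disjoint]
    exact disjoint_left.2 fun x hx => (mem_sdiff.1 (h2 hx)).2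
  by_cases hz : z ∈ Γ
  · have hΓΔ : Δ = Γ := O_eq S hz
    set D := (univ \ B) \ Δ with hD
    have hDc : Cl S B D := hUc.sdiff (Cl_O S B z)
    have hDT : Disjoint D T := disjoint_left.2 fun x hx hxT => by
      rcases (hmT x).1 hxT with rfl | h
      · exact (mem_sdiff.1 hx).2 hzΔ
      · exact (mem_sdiff.1 (mem_sdiff.1 hx).1).2 h
    have hcD : D.card + d = Fintype.card α - A.card := by
      rw [← hcU, ← hdΔ]; exact card_sdiff_add_card_eq_card hΔU
    have e1 : parts S B univ = d ::ₘ parts S B D := by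
      rw [hU1, parts_split S (Cl_O S B z) hΔU, parts_O S hzB, hdΔ, Multiset.singleton_add]
    have e2 : parts S T univ = parts S T Δ + parts S T D := by
      rw [hU2, parts_split S ((Cl_O S B z).mono hBT) hΔU]
    set Q := parts S T Δ with hQdef
    set R := parts S B D with hR
    have hRs : R.sum = D.card := hsumB D hDc sdiff_subset
    have r1 : (Q.map (Fo (parts S T univ))).sum ≤ (Q.map (Fo (Q + R))).sum := by
      rw [e2]
      refine Multiset.sum_map_le_sum_map _ _ fun c hc => ?_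
      exact refine S hok (N := N) (F := fun M => Fo M c) (X₀ := {c})
        (fun X Q h => P.mo X Q c (Multiset.singleton_le.1 h)) hBT _ D Q rfl hDc hDT
        (Multiset.singleton_le.2 hc) (hp _ _) (by omega)
    have r2 : Ff (parts S T univ) ≤ Ff (Q + R) := by
      rw [e2]
      exact refine S hok (N := N) (F := Ff) (X₀ := 0)
        (fun X Q _ => P.mf X Q) hBT _ D Q rfl hDc hDT (Multiset.zero_le _) (hp _ _) (by omega)
    have hP := P.one R Q (hp _ _) (hp _ _) (hQ ▸ hokd) (by omega)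
    rw [hQ] at hP
    rw [← hΓΔ] at hstep
    rw [e1]
    refine ⟨?_, fun h1 h2 => ?_⟩
    · have := hstep _ (P.nnf _) (fun g₁ h1 h2 h3 _ => hclose g₁ h1 h2 h3)
      linarith [hP.1]
    · have := hstep 0 le_rfl (fun g₁ _ _ _ h => absurd h1 h)
      linarith [hP.2 fun a ha => h2 a (Multiset.mem_cons_of_mem ha)]
  · have hdis : ∀ x ∈ Δ, x ∉ Γ := fun x hx hx' => hz (O_trans S hx' (O_symm S hx))
    have hΓU : Γ ⊆ univ \ B := fun x hx => by simpa using hΓB x hx
    have hΔU' : Δ ⊆ (univ \ B) \ Γ := fun x hx => mem_sdiff.2 ⟨hΔU hx, hdis x hx⟩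
    set D := ((univ \ B) \ Γ) \ Δ with hD
    have hDc : Cl S B D := (hUc.sdiff (Cl_O S B _)).sdiff (Cl_O S B z)
    have hDT : Disjoint D T := disjoint_left.2 fun x hx hxT => by
      rcases (hmT x).1 hxT with rfl | h
      · exact (mem_sdiff.1 hx).2 hzΔ
      · exact (mem_sdiff.1 (mem_sdiff.1 (mem_sdiff.1 hx).1).1).2 h
    have hcD : D.card + d + d = Fintype.card α - A.card := by
      have h1 := card_sdiff_add_card_eq_card hΔU'
      have h2 := card_sdiff_add_card_eq_card hΓU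
      rw [hdΔ, ← hD] at h1
      rw [hdΓ, hcU] at h2
      omega
    have e1 : parts S B univ = d ::ₘ d ::ₘ parts S B D := by
      rw [hU1, parts_split S (Cl_O S B _) hΓU, parts_split S (Cl_O S B z) hΔU', parts_O S hzB,
        parts_O S hgβ, hdΔ, hdΓ, Multiset.singleton_add, Multiset.singleton_add]
    have e2 : parts S T univ = parts S T Γ + parts S T Δ + parts S T D := by
      rw [hU2, parts_split S ((Cl_O S B _).mono hBT) hΓU,
        parts_split S ((Cl_O S B z).mono hBT) hΔU', add_assoc]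
    have hC : (parts S T Γ).sum = d := by
      rw [sum_parts S ((Cl_O S B _).mono hBT), sdiff_eq_self_of_disjoint, hdΓ]
      refine disjoint_left.2 fun x hx hxT => ?_
      rcases (hmT x).1 hxT with rfl | h
      · exact hz hx
      · exact hΓB x hx h
    set Q := parts S T Δ with hQdef
    set C := parts S T Γ with hCdef
    set R := parts S B D with hR
    have hRs : R.sum = D.card := hsumB D hDc (sdiff_subset.trans sdiff_subset)
    have r1 : (C.map (Fo (parts S T univ))).sum ≤ (C.map (Fo (C + Q + R))).sum := by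
      rw [e2]
      refine Multiset.sum_map_le_sum_map _ _ fun c hc => ?_
      exact refine S hok (N := N) (F := fun M => Fo M c) (X₀ := {c})
        (fun X Q h => P.mo X Q c (Multiset.singleton_le.1 h)) hBT _ D (C + Q) rfl hDc hDT
        (Multiset.singleton_le.2 (Multiset.mem_add.2 (Or.inl hc)))
        (fun a ha => (Multiset.mem_add.1 ha).elim (hp _ _ a) (hp _ _ a))
        (by rw [Multiset.sum_add]; omega)
    have hP := P.two R Q C (hp _ _) (hp _ _) (hp _ _) (hQ ▸ hokd) (by omega) (by omega)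
    rw [hQ] at hP
    have := hstep 0 le_rfl (fun g₁ h1 h2 h3 _ => absurd (h3 ▸ hmem g₁ h1 h2) hz)
    rw [e1]
    refine ⟨by linarith [hP.1], fun _ h2 => ?_⟩
    linarith [hP.2 fun a ha => h2 a (Multiset.mem_cons_of_mem (Multiset.mem_cons_of_mem ha))]

theorem tree {N : ℕ} {ok : ℕ → Prop} {Fo : Multiset ℕ → ℕ → ℝ} {Ff : Multiset ℕ → ℝ}
    (P : Pot N ok Fo Ff) (hok : ∀ A x, ok (O S A x).card) (k : ℕ) :
    ∀ A : Finset α, Fintype.card α - A.card = k → k ≤ N →
    (∀ g ∈ S, (∀ a ∈ A, g a ∈ A) → ((Y S A g).card : ℝ) ≤ Ff (parts S A univ)) ∧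
    (∀ g ∈ S, ∀ β, β ∉ A → β ∈ A.image g → (∀ a ∈ A, g a ∈ insert β A) →
      ((Y S A g).card : ℝ) ≤ Fo (parts S A univ) (O S A β).card) := by
  classical
  induction k with
  | zero =>
    intro A hk _
    have hA : A = univ := by
      apply eq_univ_of_card
      have := card_le_univ A
      omega
    subst hA
    refine ⟨fun g _ _ => ?_, fun g _ β h => absurd (mem_univ β) h⟩
    have h0 : parts S univ univ = 0 := by simp [parts]
    rw [h0]
    refine le_trans ?_ P.zero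
    exact_mod_cast card_le_one.2 fun c hc d hd => by
      obtain ⟨h, hh, rfl⟩ := (mem_Y S).1 hc
      obtain ⟨h', hh', rfl⟩ := (mem_Y S).1 hd
      congr 1
      ext a
      rw [hh.2 a (mem_univ a), hh'.2 a (mem_univ a)]
  | succ k ih =>
    intro A hk hN
    have ih' : ∀ β, β ∉ A → _ := fun β hβ => ih (insert β A)
      (by rw [card_insert_of_notMem hβ]; omega) (by omega)
    refine ⟨fun g hg hA => ?_, fun g hg β hβ hβ' hA => ?_⟩
    · have hne : (univ \ A).Nonempty := by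
        rw [← card_pos, card_univ_sdiff]; omega
      obtain ⟨β, hβ, hmin⟩ := exists_min_image _ (fun x => (O S A x).card) hne
      have hβA := (mem_sdiff.1 hβ).2
      have hgA : A.image g = A := eq_of_subset_of_card_le
        (fun b hb => by obtain ⟨a, ha, rfl⟩ := mem_image.1 hb; exact hA a ha)
        (card_image_of_injective _ g.injective).ge
      refine (core S P hok hg hβA (z := β) (by rw [hgA]) (by omega) (ih' β hβA).1
        (ih' β hβA).2).2 rfl fun a ha => ?_
      obtain ⟨x, -, hx, rfl⟩ := (mem_parts S).1 ha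
      exact hmin x (by simpa using hx)
    · have hsub : A.image g ⊆ insert β A := fun b hb => by
        obtain ⟨a, ha, rfl⟩ := mem_image.1 hb; exact hA a ha
      have hc : (insert β A \ A.image g).card = 1 := by
        rw [card_sdiff_of_subset hsub, card_insert_of_notMem hβ,
          card_image_of_injective _ g.injective]
        omega
      obtain ⟨z, hz⟩ := card_eq_one.1 hc
      have hT : insert β A = insert z (A.image g) := by
        rw [insert_eq z, ← hz, sdiff_union_of_subset hsub]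
      exact (core S P hok hg hβ hT (by omega) (ih' β hβ).1 (ih' β hβ).2).1

/-- the classes of fixed-point-free elements of a transitive group -/
theorem der_le {N : ℕ} {ok : ℕ → Prop} {Fo : Multiset ℕ → ℕ → ℝ} {Ff : Multiset ℕ → ℝ}
    (P : Pot N ok Fo Ff) (hok : ∀ A x, ok (O S A x).card) (hN : Fintype.card α ≤ N + 1) (x : α)
    (hx : O S ∅ x = univ) :
    ((Y S ∅ 1).card : ℝ) ≤ ((parts S {x} univ).map (Fo (parts S {x} univ))).sum := by
  have h := (tree S P hok _ (insert x ∅) rfl (by simp; omega)).2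
  have := step S (A := ∅) (g := 1) (β := x) (z := x) S.one_mem (by simp) (by simp)
    (Fo (parts S (insert x ∅) univ)) (P.nno _) 0 le_rfl
    (fun g₁ h1 _ h3 => h g₁ h1 _ h3 (by simp) (by simp)) (fun _ _ _ _ h => absurd rfl h)
  simpa [hx] using this

end CL.KT
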