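import Cfsg.Agent.KT.Der

set_option autoImplicit false

/-! A multiplicative potential valid for every number of points. -/

namespace CL.KT

/-- a table of five values continued geometrically -/
noncomputable def ge (a b c d e : ℝ) : ℕ → ℝ
  | 0 => a
  | 1 => b
  | 2 => c
  | 3 => d
  | n + 4 => e * (41 / 25) ^ n

theorem ge_succ (a b c d e : ℝ) {n : ℕ} (h : 4 ≤ n) :
    ge a b c d e (n + 1) = 41 / 25 * ge a b c d e n := by
  obtain ⟨m, rfl⟩ : ∃ m, n = m + 4 := ⟨n - 4, by omega⟩
  show e * (41 / 25) ^ (m + 1) = 41 / 25 * (e * (41 / 25) ^ m)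
  ring

/-- weight of an untouched orbit -/
noncomputable def vv : ℕ → ℝ := ge 1 1 1.42 2.21 3.55
/-- weight of the active orbit -/
noncomputable def oo : ℕ → ℝ := ge 1 1 2 3.42 5.63
/-- bound for the sum over the children -/
noncomputable def BB : ℕ → ℝ := ge 0 1 2 3.42 5.68

theorem vv_succ {n : ℕ} (h : 4 ≤ n) : vv (n + 1) = 41 / 25 * vv n := ge_succ _ _ _ _ _ h
theorem oo_succ {n : ℕ} (h : 4 ≤ n) : oo (n + 1) = 41 / 25 * oo n := ge_succ _ _ _ _ _ h
theorem BB_succ {n : ℕ} (h : 4 ≤ n) : BB (n + 1) = 41 / 25 * BB n := ge_succ _ _ _ _ _ h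

theorem ind1 {P : ℕ → Prop} (h0 : ∀ n ≤ 4, P n) (h1 : ∀ n, 4 ≤ n → P n → P (n + 1)) (n : ℕ) :
    P n := by
  induction n with
  | zero => exact h0 0 (by omega)
  | succ n ih =>
    by_cases h : 4 ≤ n
    · exact h1 n h ih
    · exact h0 _ (by omega)

theorem ind2 {P : ℕ → ℕ → Prop} (h0 : ∀ s ≤ 4, ∀ c ≤ 4, P s c)
    (h1 : ∀ s c, 4 ≤ s → P s c → P (s + 1) c) (h2 : ∀ s c, 4 ≤ c → P s c → P s (c + 1))
    (s c : ℕ) : P s c := by
  induction s using ind1 with
  | h0 s hs => exact ind1 (h0 s hs) (fun c hc => h2 s c hc) c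
  | h1 s hs ih => exact h1 s c hs ih

theorem vv_pos (n : ℕ) : 0 < vv n := by
  induction n using ind1 with
  | h0 n hn => interval_cases n <;> norm_num [vv, ge]
  | h1 n hn ih => rw [vv_succ hn]; positivity

theorem vv_le_oo (n : ℕ) : vv n ≤ oo n := by
  induction n using ind1 with
  | h0 n hn => interval_cases n <;> norm_num [vv, oo, ge]
  | h1 n hn ih => rw [vv_succ hn, oo_succ hn]; linarith

theorem BB_nn (n : ℕ) : 0 ≤ BB n := by
  induction n using ind1 with
  | h0 n hn => interval_cases n <;> norm_num [BB, ge]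
  | h1 n hn ih => rw [BB_succ hn]; positivity

theorem vS (s c : ℕ) : vv s * vv c ≤ vv (s + c) := by
  induction s, c using ind2 with
  | h0 s hs c hc => interval_cases s <;> interval_cases c <;> norm_num [vv, ge]
  | h1 s c hs ih => rw [add_right_comm, vv_succ hs, vv_succ (by omega)]; linarith
  | h2 s c hc ih => rw [← add_assoc, vv_succ hc, vv_succ (by omega)]; linarith

theorem vB (s c : ℕ) : 0 < c → BB s * vv c + vv s * oo c ≤ BB (s + c) := by
  induction s, c using ind2 with
  | h0 s hs c hc => interval_cases s <;> interval_cases c <;> norm_num [vv, oo, BB, ge]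
  | h1 s c hs ih =>
    intro h
    rw [add_right_comm, vv_succ hs, BB_succ hs, BB_succ (by omega)]; linarith [ih h]
  | h2 s c hc ih =>
    intro _
    rw [← add_assoc, vv_succ hc, oo_succ hc, BB_succ (by omega)]; linarith [ih (by omega)]

theorem vO (d : ℕ) : vv d + BB d ≤ oo (d + 1) := by
  induction d using ind1 with
  | h0 n hn => interval_cases n <;> norm_num [vv, oo, BB, ge]
  | h1 n hn ih => rw [vv_succ hn, BB_succ hn, oo_succ (by omega)]; linarith

theorem vV (d : ℕ) : BB d ≤ vv (d + 1) := by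
  induction d using ind1 with
  | h0 n hn => interval_cases n <;> norm_num [vv, BB, ge]
  | h1 n hn ih => rw [BB_succ hn, vv_succ (by omega)]; linarith

theorem vX (d : ℕ) : vv d * BB (d + 1) ≤ vv (d + 1) * vv (d + 1) := by
  induction d using ind1 with
  | h0 n hn => interval_cases n <;> norm_num [vv, BB, ge]
  | h1 n hn ih =>
    rw [vv_succ (n := n + 1) (by omega), BB_succ (n := n + 1) (by omega)]
    nth_rewrite 1 [vv_succ hn]
    linarith

theorem BB_sq (s : ℕ) (h : 12 ≤ s) : BB s ^ 2 ≤ 0.732 ^ 2 * 3 ^ (s - 1) := by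
  induction s, h using Nat.le_induction with
  | base => norm_num [BB, ge]
  | succ n hn ih =>
    obtain ⟨m, rfl⟩ : ∃ m, n = m + 1 := ⟨n - 1, by omega⟩
    rw [BB_succ (by omega), mul_pow]
    simp only [Nat.add_sub_cancel, pow_succ (3 : ℝ)] at ih ⊢
    have : (0 : ℝ) < 3 ^ m := by positivity
    nlinarith [sq_nonneg (BB (m + 1))]

/-- product of the weights -/
noncomputable def pv (M : Multiset ℕ) : ℝ := (M.map vv).prod

/-- ratio -/
noncomputable def rho (d : ℕ) : ℝ := oo d / vv d

theorem pv_pos (M : Multiset ℕ) : 0 < pv M :=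
  Multiset.prod_pos fun a ha => by
    obtain ⟨b, -, rfl⟩ := Multiset.mem_map.1 ha
    exact vv_pos b

theorem pv_add (M M' : Multiset ℕ) : pv (M + M') = pv M * pv M' := by simp [pv]

theorem pv_cons (a : ℕ) (M : Multiset ℕ) : pv (a ::ₘ M) = vv a * pv M := by simp [pv]

theorem rho_mul (d : ℕ) : rho d * vv d = oo d := div_mul_cancel₀ _ (vv_pos d).ne'

theorem one_le_rho (d : ℕ) : 1 ≤ rho d := (one_le_div (vv_pos d)).2 (vv_le_oo d)

theorem pv_le (M : Multiset ℕ) : pv M ≤ vv M.sum := by
  induction M using Multiset.induction_on with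
  | empty => simp [pv, vv, ge]
  | cons a M ih =>
    rw [pv_cons, Multiset.sum_cons]
    exact (mul_le_mul_of_nonneg_left ih (vv_pos a).le).trans (vS _ _)

theorem sb_le (M : Multiset ℕ) (h : ∀ a ∈ M, 0 < a) : (M.map rho).sum * pv M ≤ BB M.sum := by
  induction M using Multiset.induction_on with
  | empty => simp [BB, ge]
  | cons a M ih =>
    have h1 := ih fun b hb => h b (Multiset.mem_cons_of_mem hb)
    have h2 := vB M.sum a (h a (Multiset.mem_cons_self _ _))
    have h3 := pv_le M
    have h4 := vv_pos a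
    have h5 := vv_le_oo a
    rw [pv_cons, Multiset.sum_cons, Multiset.map_cons, Multiset.sum_cons, add_comm a]
    calc (rho a + (M.map rho).sum) * (vv a * pv M)
        = (M.map rho).sum * pv M * vv a + pv M * (rho a * vv a) := by ring
      _ ≤ BB M.sum * vv a + vv M.sum * oo a := by
        rw [rho_mul]
        exact add_le_add (mul_le_mul_of_nonneg_right h1 h4.le)
          (mul_le_mul_of_nonneg_right h3 (by linarith))
      _ ≤ _ := h2

theorem sum_map_rho (Q : Multiset ℕ) (x : ℝ) :
    (Q.map fun d => rho d * x).sum = (Q.map rho).sum * x := Multiset.sum_map_mul_right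

theorem potM (N : ℕ) {ok : ℕ → Prop} (hok : ∀ c, ok c → 0 < c) :
    Pot N ok (fun M d => rho d * pv M) pv where
  zero := by simp [pv]
  nno := fun M d => mul_nonneg (by linarith [one_le_rho d]) (pv_pos M).le
  nnf := fun M => (pv_pos M).le
  mo := fun X Q c _ _ _ _ _ => by
    rw [pv_add, pv_cons, mul_comm (pv X)]
    exact mul_le_mul_of_nonneg_left (mul_le_mul_of_nonneg_right (pv_le Q) (pv_pos X).le)
      (by linarith [one_le_rho c])
  mf := fun X Q _ _ _ _ => by
    rw [pv_add, pv_cons, mul_comm (pv X)]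
    exact mul_le_mul_of_nonneg_right (pv_le Q) (pv_pos X).le
  one := fun R Q _ hQ _ _ => by
    have h1 := sb_le Q fun a ha => hok a (hQ a ha)
    have h2 := pv_le Q
    have h3 := pv_pos R
    have h4 := vO Q.sum
    have h5 := vV Q.sum
    rw [sum_map_rho, pv_add, pv_cons, ← mul_assoc, ← mul_assoc, rho_mul, ← add_mul]
    exact ⟨mul_le_mul_of_nonneg_right (by linarith) h3.le,
      fun _ => mul_le_mul_of_nonneg_right (by linarith) h3.le⟩
  two := fun R Q C _ _ hC _ hs _ => by
    have h1 := sb_le C fun a ha => hok a (hC a ha)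
    have h2 := pv_le Q
    have h3 := pv_pos R
    have h4 := vX Q.sum
    have h5 := pv_pos Q
    have h6 := BB_nn (Q.sum + 1)
    rw [hs] at h1
    have h7 : (C.map fun d => rho d * pv (C + Q + R)).sum ≤
        pv ((Q.sum + 1) ::ₘ (Q.sum + 1) ::ₘ R) := by
      rw [sum_map_rho, pv_add, pv_add, pv_cons, pv_cons, ← mul_assoc, ← mul_assoc, ← mul_assoc]
      refine mul_le_mul_of_nonneg_right (le_trans ?_ h4) h3.le
      rw [mul_comm (vv _)]
      exact mul_le_mul h1 h2 h5.le h6
    refine ⟨h7.trans ?_, fun _ => h7⟩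
    exact le_mul_of_one_le_left (pv_pos _).le (one_le_rho _)

end CL.KT
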