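import Cfsg.Agent.KT.Small
import Cfsg.Agent.KT.Mult

set_option autoImplicit false

/-! `k(S)² ≤ 3 ^ (n - 1)` for permutation groups of order prime to 3, 5 or 7. -/

namespace CL.KT

open Finset Equiv

universe u

theorem k_congr {A B : Type*} [Group A] [Group B] (e : A ≃* B) :
    Nat.card (ConjClasses A) = Nat.card (ConjClasses B) :=
  Nat.card_congr (Quotient.congr e.toEquiv fun a b => ⟨fun h => e.toMonoidHom.map_isConj h,
    fun h => show IsConj a b by simpa using e.symm.toMonoidHom.map_isConj h⟩)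

theorem k_le_mul {H : Type*} [Group H] [Finite H] (N : Subgroup H) [N.Normal] :
    Nat.card (ConjClasses H) ≤ Nat.card (ConjClasses N) * Nat.card (ConjClasses (H ⧸ N)) := by
  simpa only [CL.Fgs.kPi_univ] using CL.Fgs.kPi_le_mul Set.univ N

/-- bound for transitive groups -/
def W (w : ℕ → ℕ) (d : ℕ) : ℕ := if d ≤ 12 then w d else Nat.sqrt (3 ^ (d - 1))

theorem G_mul (a s : ℕ) (ha : 0 < a) : G a * G s ≤ G (a + s) := by
  unfold G
  rcases Nat.eq_zero_or_pos s with rfl | hs
  · simp
  obtain ⟨a, rfl⟩ : ∃ b, a = b + 1 := ⟨a - 1, by omega⟩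
  obtain ⟨s, rfl⟩ : ∃ b, s = b + 1 := ⟨s - 1, by omega⟩
  have e : a + 1 + (s + 1) - 1 = a + s + 1 := by omega
  simp only [Nat.add_sub_cancel, e]
  have hp : ∀ n : ℕ, 0 < 3 ^ n := fun n => by positivity
  split_ifs with h1 h2 h3 h4 h5 h6 h7
  · omega
  · obtain rfl : a = 1 := by omega
    obtain rfl : s = 1 := by omega
    norm_num
  · omega
  · obtain rfl : a = 1 := by omega
    have := hp s
    rw [pow_succ, pow_add]; omega
  · omega
  · obtain rfl : s = 1 := by omega
    have := hp a
    rw [pow_succ, pow_add]; omega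
  · obtain rfl : a = 0 := by omega
    obtain rfl : s = 0 := by omega
    norm_num
  · have := hp (a + s)
    rw [← pow_add, pow_succ]; omega

variable {p : ℕ} {t : Tr} {PL : ℕ → List (List ℕ)} {w : ℕ → ℕ}

theorem Cert.W_sq (c : Cert p t PL w) {d : ℕ} (h : ok p d) : W w d ^ 2 ≤ G d := by
  unfold W
  split_ifs with h1
  · exact c.sq d (List.mem_range.2 (by omega)) h
  · rw [G, if_neg (by omega)]; exact Nat.sqrt_le' _

theorem Cert.prod_sq (c : Cert p t PL w) (Q : Multiset ℕ) (h : ∀ a ∈ Q, ok p a) :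
    (Q.map (W w)).prod ^ 2 ≤ G Q.sum := by
  induction Q using Multiset.induction_on with
  | empty => simp [G]
  | cons a Q ih =>
    have ha := h a (Multiset.mem_cons_self _ _)
    rw [Multiset.map_cons, Multiset.prod_cons, Multiset.sum_cons, mul_pow]
    exact (Nat.mul_le_mul (c.W_sq ha) (ih fun b hb => h b (Multiset.mem_cons_of_mem hb))).trans
      (G_mul _ _ ha.1)

theorem map_W (Q : Multiset ℕ) (h : Q.sum ≤ 12) : Q.map (W w) = Q.map w :=
  Multiset.map_congr rfl fun a ha =>
    if_pos ((Multiset.single_le_sum (fun _ _ => Nat.zero_le _) a ha).trans h)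

theorem Cert.W_sup (c : Cert p t PL w) (Q : Multiset ℕ) (h : ∀ a ∈ Q, ok p a) (hs : ok p Q.sum) :
    (Q.map (W w)).prod ≤ W w Q.sum := by
  by_cases h1 : Q.sum ≤ 12
  · rw [map_W Q h1, W, if_pos h1]
    obtain ⟨l, hl, rfl⟩ := c.ex Q h h1
    simp only [Multiset.sum_coe, Multiset.map_coe, Multiset.prod_coe] at *
    exact c.sup _ (List.mem_range.2 (by omega)) hs l hl
  · rw [W, if_neg h1, Nat.le_sqrt']
    have := c.prod_sq Q h
    rwa [G, if_neg (by omega)] at this

/-- the bound for transitive groups of degree `d` -/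
def TB (p : ℕ) (w : ℕ → ℕ) (d : ℕ) : Prop :=
  ∀ (β : Type u) [Fintype β] [DecidableEq β] (S : Subgroup (Perm β)) (x : β),
    Fintype.card β = d → ¬ p ∣ Nat.card S → (∀ y, ∃ h ∈ S, h x = y) →
    Nat.card (ConjClasses S) ≤ W w d

variable {α : Type u} [Fintype α] [DecidableEq α] (S : Subgroup (Perm α))

theorem ok_O (hp : ¬ p ∣ Nat.card S) (A : Finset α) (x : α) : ok p (O S A x).card :=
  ⟨card_O_pos S A x, fun h => hp ((Nat.dvd_of_mod_eq_zero h).trans (card_O_dvd S A x))⟩

theorem ok_parts (hp : ¬ p ∣ Nat.card S) (A D : Finset α) : ∀ a ∈ parts S A D, ok p a :=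
  fun a ha => by
    obtain ⟨x, -, -, rfl⟩ := (mem_parts S).1 ha
    exact ok_O S hp _ _

theorem intrans (c : Cert p t PL w) (hp : ¬ p ∣ Nat.card S) (n : ℕ)
    (hT : ∀ d ≤ n, TB.{u} p w d) (k : ℕ) : ∀ A : Finset α, Fintype.card α - A.card = k → k ≤ n →
    Nat.card (ConjClasses (K S A)) ≤ ((parts S A univ).map (W w)).prod := by
  classical
  induction k using Nat.strong_induction_on with
  | _ k ih =>
  intro A hk hn
  rcases (univ \ A).eq_empty_or_nonempty with h0 | ⟨x, hx⟩
  · have : parts S A univ = 0 := by simp [parts, h0]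
    rw [this]
    refine Finite.card_le_one_iff_subsingleton.2 ⟨fun a b => ?_⟩
    obtain ⟨a, rfl⟩ := ConjClasses.exists_rep a
    obtain ⟨b, rfl⟩ := ConjClasses.exists_rep b
    congr 1
    ext y
    have hy : y ∈ A := by
      by_contra h
      have : y ∈ univ \ A := by simpa using h
      rw [h0] at this
      exact absurd this (notMem_empty _)
    rw [a.2.2 y hy, b.2.2 y hy]
  have hxA : x ∉ A := (mem_sdiff.1 hx).2
  set ω := O S A x with hω
  have hωA : ∀ y ∈ ω, y ∉ A := fun y hy => not_mem_of_O S hxA hy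
  have hωU : ω ⊆ univ \ A := fun y hy => by simpa using hωA y hy
  set D := (univ \ A) \ ω with hD
  have hcD : D.card + ω.card = k := by
    rw [← hk, ← card_univ_sdiff]; exact card_sdiff_add_card_eq_card hωU
  have hpos : 0 < ω.card := card_O_pos S A x
  let φ := MulAction.toPermHom (K S A) (MulAction.orbit (K S A) x)
  have hker : φ.ker = (K S (A ∪ ω)).subgroupOf (K S A) := by
    ext h
    rw [MonoidHom.mem_ker, Subgroup.mem_subgroupOf, mem_K]
    constructor
    · intro h1
      refine ⟨h.2.1, fun a ha => ?_⟩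
      rcases mem_union.1 ha with ha | ha
      · exact h.2.2 a ha
      · have : a ∈ MulAction.orbit (K S A) x := by rw [orbit_K]; exact ha
        exact congrArg Subtype.val (DFunLike.congr_fun h1 ⟨a, this⟩)
    · intro h1
      ext ⟨a, ha⟩
      rw [orbit_K] at ha
      exact h1.2 a (mem_union_right _ ha)
  have h1 := k_le_mul φ.ker
  rw [k_congr (QuotientGroup.quotientKerEquivRange φ), hker,
    k_congr (Subgroup.subgroupOfEquivOfLe (K_anti S subset_union_left))] at h1
  have h2 : Nat.card (ConjClasses φ.range) ≤ W w ω.card := by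
    refine hT _ (by omega) _ φ.range ⟨x, MulAction.mem_orbit_self x⟩ ?_ ?_ ?_
    · rw [← Nat.card_eq_fintype_card, Nat.card_coe_set_eq, orbit_K, Set.ncard_coe_finset]
    · exact fun h => hp (h.trans ((Subgroup.card_range_dvd φ).trans
        (Subgroup.card_dvd_of_le (K_le S A))))
    · rintro ⟨_, h, rfl⟩
      exact ⟨φ h, ⟨h, rfl⟩, rfl⟩
  have hcT : Fintype.card α - (A ∪ ω).card = D.card := by
    rw [← card_univ_sdiff]
    congr 1
    ext y
    simp [hD]
  have h3 := ih _ (by omega) (A ∪ ω) hcT (by omega)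
  have e1 : parts S A univ = ω.card ::ₘ parts S A D := by
    rw [parts_congr S (D := univ) (E := univ \ A) (by simp), parts_split S (Cl_O S A x) hωU,
      parts_O S hxA, Multiset.singleton_add]
  have e2 : parts S (A ∪ ω) univ = parts S (A ∪ ω) D := parts_congr S (by
    ext y; simp only [hD, mem_sdiff, mem_univ, mem_union]; tauto)
  have h4 := refine S (ok_O S hp) (N := D.card) (F := fun M => (((M.map (W w)).prod : ℕ) : ℝ))
    (X₀ := 0) (fun X Q _ _ hQ hs _ => by
      rw [Multiset.map_add, Multiset.prod_add, Multiset.map_cons, Multiset.prod_cons, mul_comm]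
      exact_mod_cast Nat.mul_le_mul_right _ (c.W_sup Q hQ hs))
    (subset_union_left : A ⊆ A ∪ ω) _ D 0 rfl
    (((Cl_univ S A).sdiff (Cl_self S A)).sdiff (Cl_O S A x))
    (disjoint_left.2 fun y hy => by
      simp only [hD, mem_sdiff, mem_univ, mem_union] at hy ⊢; tauto)
    le_rfl (by simp) (by simp)
  simp only [zero_add, Nat.cast_le] at h4
  rw [e1, Multiset.map_cons, Multiset.prod_cons, mul_comm]
  rw [e2] at h3
  exact h1.trans (Nat.mul_le_mul (h3.trans h4) h2)

theorem k_split (x : α) (hx : ∀ y, ∃ h ∈ S, h x = y) :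
    Nat.card (ConjClasses S) ≤ Nat.card (ConjClasses (K S {x})) + (Y S ∅ 1).card := by
  classical
  have := Fintype.ofFinite (ConjClasses (K S {x}))
  have := Fintype.ofFinite (ConjClasses S)
  have hsub : (univ : Finset (ConjClasses S)) ⊆
      univ.image (ConjClasses.map (Subgroup.inclusion (K_le S {x}))) ∪ Y S ∅ 1 := by
    intro a _
    obtain ⟨a, rfl⟩ := ConjClasses.exists_rep a
    by_cases h : ∀ y, (a : Perm α) y ≠ y
    · exact mem_union_right _ ((mem_Y S).2 ⟨a, ⟨h, by simp⟩, rfl⟩)
    · push Not at h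
      obtain ⟨y, hy⟩ := h
      obtain ⟨g, hg, rfl⟩ := hx y
      refine mem_union_left _ (mem_image.2 ⟨ConjClasses.mk ⟨g⁻¹ * a * g,
        S.mul_mem (S.mul_mem (S.inv_mem hg) a.2) hg, by simp [Perm.mul_apply, hy]⟩,
        mem_univ _, ?_⟩)
      refine ConjClasses.mk_eq_mk_iff_isConj.2 (isConj_iff.2 ⟨(⟨g, hg⟩ : S), ?_⟩)
      ext1
      simp [mul_assoc]
  rw [Nat.card_eq_fintype_card, Nat.card_eq_fintype_card]
  exact (card_le_card hsub).trans ((card_union_le _ _).trans
    (Nat.add_le_add_right card_image_le _))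

theorem trans_bound (c : Cert p t PL w) (d : ℕ) : TB.{u} p w d := by
  induction d using Nat.strong_induction_on with
  | _ d ih =>
  intro α _ _ S x hd hp hx
  have hpos : 0 < d := hd ▸ Fintype.card_pos_iff.2 ⟨x⟩
  have hO : O S ∅ x = univ := eq_univ_of_forall fun y => by
    obtain ⟨h, h1, h2⟩ := hx y
    exact (mem_O S).2 ⟨h, h1, by simp, h2⟩
  have hdvd : d ∣ Nat.card S := by
    have := card_O_dvd S ∅ x
    rwa [hO, card_univ, hd] at this
  have hokd : ok p d := by
    have := ok_O S hp ∅ x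
    rwa [hO, card_univ, hd] at this
  have h1 := k_split S x hx
  have h2 := intrans S c hp (d - 1) (fun e he => ih e (by omega)) (d - 1) {x} (by simp [hd]) le_rfl
  have hsum : (parts S {x} univ).sum + 1 = d := by
    rw [sum_parts S (Cl_univ S _), card_univ_sdiff, card_singleton]; omega
  have hokP := ok_parts S hp {x} univ
  by_cases h12 : d ≤ 12
  · rw [W, if_pos h12]
    by_cases h5 : d = 5
    · subst h5; exact (small5 S hd hdvd).trans c.w5
    by_cases h4 : d = 4 ∧ 3 ∈ parts S {x} univ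
    · obtain ⟨rfl, h3⟩ := h4
      obtain ⟨y, -, -, hy⟩ := (mem_parts S).1 h3
      have := card_O_dvd S {x} y
      rw [hy] at this
      exact (small4 S hd (by omega)).trans c.w4
    have h3 := der_le S c.pot (ok_O S hp) (by omega) x hO
    rw [map_W _ (by omega)] at h2
    obtain ⟨l, hl, he⟩ := c.ex _ hokP (by omega)
    rw [← he] at h2 h3 hsum h4
    simp only [code_coe, Multiset.map_coe, Multiset.sum_coe, Multiset.prod_coe,
      Multiset.mem_coe] at h2 h3 hsum h4
    rw [show (l.map fun c => ((t.get (cl l + c) : ℕ) : ℝ)).sum =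
      (((l.map fun c => t.get (cl l + c)).sum : ℕ) : ℝ) by
        rw [Nat.cast_list_sum, List.map_map]; rfl, Nat.cast_le] at h3
    have h6 := c.top l.sum (List.mem_range.2 (by omega)) (hsum ▸ hokd) (by omega) l hl
      (fun h => h4 ⟨by omega, h.2⟩)
    rw [hsum] at h6
    omega
  · rw [W, if_neg h12, Nat.le_sqrt']
    have h3 := der_le S (potM d (ok := ok p) fun _ h => h.1) (ok_O S hp) (by omega) x hO
    rw [sum_map_rho] at h3
    have h4 := h3.trans (sb_le _ fun a ha => (hokP a ha).1)
    have h5 := c.prod_sq _ hokP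
    have h6 := BB_sq (parts S {x} univ).sum (by omega)
    have h7 := BB_nn (parts S {x} univ).sum
    rw [G, if_neg (by omega)] at h5
    have e : d - 1 = (parts S {x} univ).sum - 1 + 1 := by omega
    rw [e, pow_succ 3]
    set m := (parts S {x} univ).sum - 1
    set a := ((parts S {x} univ).map (W w)).prod
    set b := BB (parts S {x} univ).sum
    have h8 : (Nat.card (ConjClasses S) : ℝ) ≤ a + b := by
      have : (Nat.card (ConjClasses S) : ℝ) ≤ a + (Y S ∅ 1).card := by
        exact_mod_cast h1.trans (Nat.add_le_add_right h2 _)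
      linarith
    have h9 : (a : ℝ) ^ 2 ≤ 3 ^ m := by exact_mod_cast h5
    have h10 : ((Nat.card (ConjClasses S) : ℝ)) ^ 2 ≤ 3 ^ m * 3 := by
      refine (pow_le_pow_left₀ (Nat.cast_nonneg _) h8 2).trans ?_
      nlinarith [sq_nonneg (0.732 * (a : ℝ) - b), (by positivity : (0 : ℝ) < 3 ^ m)]
    exact_mod_cast h10

theorem bound (c : Cert p t PL w) (hn : 3 ≤ Fintype.card α) (hp : ¬ p ∣ Nat.card S) :
    Nat.card (ConjClasses S) ^ 2 ≤ 3 ^ (Fintype.card α - 1) := by
  have h1 := intrans S c hp _ (fun d _ => trans_bound c d) _ ∅ rfl le_rfl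
  have h2 := c.prod_sq _ (ok_parts S hp ∅ univ)
  have h3 : K S ∅ = S := by ext h; simp [mem_K]
  rw [sum_parts S (Cl_univ S _), sdiff_empty, card_univ, G, if_neg (by omega)] at h2
  rw [h3] at h1
  exact (Nat.pow_le_pow_left h1 2).trans h2

end CL.KT
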