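import Cfsg.Agent.KT.Tree

set_option autoImplicit false

/-! Multisets of orbit sizes of pointwise stabilisers, and how they refine. -/

namespace CL.KT

open Finset Equiv

variable {α : Type*} [Fintype α] [DecidableEq α] (S : Subgroup (Perm α))

/-- pointwise stabiliser of `A` in `S` -/
def K (A : Finset α) : Subgroup (Perm α) where
  carrier := {h | h ∈ S ∧ ∀ a ∈ A, h a = a}
  one_mem' := ⟨S.one_mem, fun _ _ => rfl⟩
  mul_mem' := fun {g h} hg hh => ⟨S.mul_mem hg.1 hh.1, fun a ha => by
    rw [Perm.mul_apply, hh.2 a ha, hg.2 a ha]⟩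
  inv_mem' := fun {g} hg => ⟨S.inv_mem hg.1, fun a ha => by
    rw [Perm.inv_eq_iff_eq]; exact (hg.2 a ha).symm⟩

omit [Fintype α] [DecidableEq α] in
theorem mem_K {A : Finset α} {h : Perm α} : h ∈ K S A ↔ h ∈ S ∧ ∀ a ∈ A, h a = a := Iff.rfl

omit [Fintype α] [DecidableEq α] in
theorem K_le (A : Finset α) : K S A ≤ S := fun _ h => h.1

omit [Fintype α] [DecidableEq α] in
theorem K_anti {A B : Finset α} (h : A ⊆ B) : K S B ≤ K S A :=
  fun _ hg => ⟨hg.1, fun a ha => hg.2 a (h ha)⟩

theorem orbit_K (A : Finset α) (x : α) : MulAction.orbit (K S A) x = ↑(O S A x) := by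
  ext y
  rw [mem_coe, mem_O, MulAction.mem_orbit_iff]
  constructor
  · rintro ⟨h, rfl⟩; exact ⟨h, h.2.1, h.2.2, rfl⟩
  · rintro ⟨h, h1, h2, rfl⟩; exact ⟨⟨h, h1, h2⟩, rfl⟩

theorem card_K (A : Finset α) (x : α) :
    Nat.card (K S A) = (O S A x).card * Nat.card (K S (insert x A)) := by
  have h1 : MulAction.stabilizer (K S A) x = (K S (insert x A)).subgroupOf (K S A) := by
    ext h
    rw [MulAction.mem_stabilizer_iff, Subgroup.mem_subgroupOf, mem_K]
    constructor
    · intro hx
      refine ⟨h.2.1, fun a ha => ?_⟩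
      rcases mem_insert.1 ha with rfl | ha
      · exact hx
      · exact h.2.2 a ha
    · intro hx; exact hx.2 x (mem_insert_self _ _)
  have h2 := MulAction.index_stabilizer (K S A) x
  rw [orbit_K, Set.ncard_coe_finset] at h2
  have h3 := (MulAction.stabilizer (K S A) x).index_mul_card
  rw [h2, h1, Nat.card_congr (Subgroup.subgroupOfEquivOfLe
    (K_anti S (subset_insert x A))).toEquiv] at h3
  exact h3.symm

theorem card_K_conj {A : Finset α} {g : Perm α} (hg : g ∈ S) :
    Nat.card (K S (A.image g)) = Nat.card (K S A) := by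
  have : K S (A.image g) = (K S A).map (MulAut.conj g).toMonoidHom := by
    ext h
    rw [Subgroup.mem_map]
    constructor
    · rintro ⟨h1, h2⟩
      refine ⟨g⁻¹ * h * g, ⟨S.mul_mem (S.mul_mem (S.inv_mem hg) h1) hg, fun a ha => ?_⟩, by
        simp [mul_assoc]⟩
      simp [Perm.mul_apply, h2 (g a) (mem_image_of_mem _ ha)]
    · rintro ⟨k, ⟨h1, h2⟩, rfl⟩
      refine ⟨S.mul_mem (S.mul_mem hg h1) (S.inv_mem hg), fun b hb => ?_⟩
      obtain ⟨a, ha, rfl⟩ := mem_image.1 hb
      simp [Perm.mul_apply, h2 a ha]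
  rw [this, Subgroup.card_map_of_injective (MulAut.conj g).injective]

theorem card_O_dvd (A : Finset α) (x : α) : (O S A x).card ∣ Nat.card S :=
  (Dvd.intro _ (card_K S A x).symm).trans (Subgroup.card_dvd_of_le (K_le S A))

theorem card_O_pos (A : Finset α) (x : α) : 0 < (O S A x).card :=
  card_pos.2 ⟨x, self_mem_O S A x⟩

theorem not_mem_of_O {A : Finset α} {x y : α} (hx : x ∉ A) (hy : y ∈ O S A x) : y ∉ A := by
  intro hyA
  obtain ⟨h, -, hA, rfl⟩ := (mem_O S).1 hy
  exact hx (h.injective (hA _ hyA) ▸ hyA)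

/-- `D` is a union of orbits of the stabiliser of `A` -/
def Cl (A D : Finset α) : Prop := ∀ x ∈ D, O S A x ⊆ D

theorem Cl_O (A : Finset α) (x : α) : Cl S A (O S A x) := fun _ hy _ hz => O_trans S hy hz

theorem Cl_univ (A : Finset α) : Cl S A univ := fun _ _ => subset_univ _

theorem Cl.mono {S : Subgroup (Perm α)} {A B D : Finset α} (h : Cl S A D) (hAB : A ⊆ B) :
    Cl S B D := fun x hx => (O_mono S hAB x).trans (h x hx)

theorem Cl.sdiff {S : Subgroup (Perm α)} {A D E : Finset α} (h : Cl S A D) (h' : Cl S A E) :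
    Cl S A (D \ E) := fun x hx y hy => mem_sdiff.2 ⟨h x (mem_sdiff.1 hx).1 hy,
      fun hE => (mem_sdiff.1 hx).2 (h' y hE (O_symm S hy))⟩

theorem Cl_self (A : Finset α) : Cl S A A := fun x hx y hy => by
  by_contra h
  exact not_mem_of_O S h (O_symm S hy) hx

/-- sizes of the orbits of the stabiliser of `T` meeting `D \ T` -/
noncomputable def parts (T D : Finset α) : Multiset ℕ :=
  ((D \ T).image (O S T)).val.map card

theorem mem_parts {T D : Finset α} {c : ℕ} :
    c ∈ parts S T D ↔ ∃ x ∈ D, x ∉ T ∧ (O S T x).card = c := by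
  simp only [parts, Multiset.mem_map, mem_val, mem_image, mem_sdiff]
  constructor
  · rintro ⟨_, ⟨x, ⟨h1, h2⟩, rfl⟩, rfl⟩; exact ⟨x, h1, h2, rfl⟩
  · rintro ⟨x, h1, h2, rfl⟩; exact ⟨_, ⟨x, ⟨h1, h2⟩, rfl⟩, rfl⟩

theorem parts_congr {T D E : Finset α} (h : D \ T = E \ T) : parts S T D = parts S T E := by
  unfold parts; rw [h]

theorem sum_parts {T D : Finset α} (h : Cl S T D) : (parts S T D).sum = (D \ T).card := by
  have hc : Cl S T (D \ T) := h.sdiff (Cl_self S T)
  rw [card_eq_sum_card_image (O S T) (D \ T)]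
  unfold parts
  rw [← sum_eq_multiset_sum]
  refine sum_congr rfl fun s hs => ?_
  obtain ⟨x, hx, rfl⟩ := mem_image.1 hs
  congr 1
  ext y
  rw [mem_filter]
  exact ⟨fun hy => ⟨hc x hx hy, O_eq S hy⟩, fun hy => hy.2 ▸ self_mem_O S T y⟩

theorem parts_split {T D E : Finset α} (hE : Cl S T E) (hED : E ⊆ D) :
    parts S T D = parts S T E + parts S T (D \ E) := by
  unfold parts
  have hd : Disjoint ((E \ T).image (O S T)) (((D \ E) \ T).image (O S T)) := by
    rw [disjoint_left]
    intro s hs hs'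
    obtain ⟨x, hx, rfl⟩ := mem_image.1 hs
    obtain ⟨y, hy, hxy⟩ := mem_image.1 hs'
    have : y ∈ O S T x := hxy ▸ self_mem_O S T y
    exact (mem_sdiff.1 (mem_sdiff.1 hy).1).2 (hE x (mem_sdiff.1 hx).1 this)
  have h1 : D \ T = (E \ T) ∪ ((D \ E) \ T) := by
    ext x
    simp only [mem_sdiff, mem_union]
    have := @hED x
    tauto
  rw [h1, image_union, ← Multiset.map_add, ← disjUnion_eq_union _ _ hd]
  rfl

theorem parts_O {T : Finset α} {x : α} (hx : x ∉ T) :
    parts S T (O S T x) = {(O S T x).card} := by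
  unfold parts
  have : (O S T x \ T).image (O S T) = {O S T x} := by
    ext s
    simp only [mem_image, mem_sdiff, mem_singleton]
    constructor
    · rintro ⟨y, ⟨hy, -⟩, rfl⟩; exact O_eq S hy
    · rintro rfl; exact ⟨x, ⟨self_mem_O S T x, hx⟩, rfl⟩
  rw [this]; rfl

theorem parts_empty (T : Finset α) : parts S T ∅ = 0 := by simp [parts]

theorem parts_conj {A : Finset α} {g : Perm α} (hg : g ∈ S) :
    parts S (A.image g) univ = parts S A univ := by
  unfold parts
  have h1 : (univ \ A.image g).image (O S (A.image g)) =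
      ((univ \ A).image (O S A)).image (fun s : Finset α => s.image g) := by
    ext s
    simp only [mem_image, mem_sdiff, mem_univ, true_and]
    constructor
    · rintro ⟨y, hy, rfl⟩
      refine ⟨_, ⟨g⁻¹ y, fun h => hy ⟨_, h, by simp⟩, rfl⟩, ?_⟩
      rw [← O_conj S hg]; simp
    · rintro ⟨_, ⟨x, hx, rfl⟩, rfl⟩
      refine ⟨g x, ?_, O_conj S hg x⟩
      rintro ⟨a, ha, h⟩
      exact hx (g.injective h ▸ ha)
  rw [h1, image_val_of_injOn (image_injective g.injective).injOn, Multiset.map_map]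
  exact Multiset.map_congr rfl fun s _ => card_image_of_injective _ g.injective

/-- refinement lemma -/
theorem refine {ok : ℕ → Prop} (hok : ∀ A x, ok (O S A x).card) {N : ℕ} {F : Multiset ℕ → ℝ}
    {X₀ : Multiset ℕ}
    (hF : ∀ X Q : Multiset ℕ, X₀ ≤ X → (∀ a ∈ X, ok a) → (∀ a ∈ Q, ok a) → ok Q.sum →
      X.sum + Q.sum ≤ N → F (X + Q) ≤ F (Q.sum ::ₘ X))
    {B T : Finset α} (hBT : B ⊆ T) (n : ℕ) : ∀ (D : Finset α) (X : Multiset ℕ), D.card = n →
      Cl S B D → Disjoint D T → X₀ ≤ X → (∀ a ∈ X, ok a) → X.sum + D.card ≤ N →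
      F (X + parts S T D) ≤ F (X + parts S B D) := by
  have hp : ∀ A D : Finset α, ∀ a ∈ parts S A D, ok a := fun A D a ha => by
    obtain ⟨x, -, -, rfl⟩ := (mem_parts S).1 ha
    exact hok _ _
  induction n using Nat.strong_induction_on with
  | _ n ih =>
    intro D X hn hD hDT hX hXok hN
    rcases D.eq_empty_or_nonempty with rfl | ⟨x, hx⟩
    · simp [parts_empty]
    have hxT : x ∉ T := disjoint_left.1 hDT hx
    have hxB : x ∉ B := fun h => hxT (hBT h)
    set ω := O S B x with hω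
    have hωD : ω ⊆ D := hD x hx
    have hωc : Cl S B ω := Cl_O S B x
    have hcard : (D \ ω).card + ω.card = D.card := card_sdiff_add_card_eq_card hωD
    have hpos : 0 < ω.card := card_O_pos S B x
    have hsum : (parts S T ω).sum = ω.card := by
      rw [sum_parts S (hωc.mono hBT), sdiff_eq_self_of_disjoint (hDT.mono_left hωD)]
    have hD' : Cl S B (D \ ω) := hD.sdiff hωc
    have hsum' : (parts S B (D \ ω)).sum = (D \ ω).card := by
      rw [sum_parts S hD', sdiff_eq_self_of_disjoint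
        ((hDT.mono_left sdiff_subset).mono_right hBT)]
    rw [parts_split S (hωc.mono hBT) hωD, parts_split S hωc hωD, parts_O S hxB, ← add_assoc]
    have h1 := ih _ (by omega) (D \ ω) (X + parts S T ω) rfl hD' (hDT.mono_left sdiff_subset)
      (hX.trans (Multiset.le_add_right _ _))
      (fun a ha => (Multiset.mem_add.1 ha).elim (hXok a) (hp _ _ a))
      (by rw [Multiset.sum_add, hsum]; omega)
    have h2 := hF (X + parts S B (D \ ω)) (parts S T ω) (hX.trans (Multiset.le_add_right _ _))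
      (fun a ha => (Multiset.mem_add.1 ha).elim (hXok a) (hp _ _ a)) (hp _ _)
      (hsum ▸ hok _ _) (by rw [Multiset.sum_add, hsum, hsum']; omega)
    rw [hsum] at h2
    refine h1.trans (le_of_eq_of_le ?_ (h2.trans (le_of_eq ?_)))
    · congr 1; abel
    · congr 1
      rw [← Multiset.singleton_add]; abel

end CL.KT
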