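import Cfsg.Agent.KT.DP
import Cfsg.Agent.Fgs.ClassCount

set_option autoImplicit false

/-! Class numbers of subgroups of `S₄` and `S₅` from centraliser orders. -/

namespace CL.KT

open Finset Equiv Nat

/-- centraliser order of a cycle type in degree `n` -/
def cz (n : ℕ) (m : Multiset ℕ) : ℕ := (n - m.sum)! * m.prod * ∏ i ∈ m.toFinset, (m.count i)!

variable {α : Type*} [Fintype α] [DecidableEq α] (S : Subgroup (Perm α))

theorem class_sum (t : ℕ) (T : Finset (Multiset ℕ)) (hT : ∀ g : Perm α, g.cycleType ∈ T) :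
    Nat.card (ConjClasses S) * Nat.card S ≤ Nat.card S * t +
      ∑ m ∈ T, ((Fintype.card α)! / cz (Fintype.card α) m) *
        (Nat.gcd (Nat.card S) (cz (Fintype.card α) m) - t) := by
  classical
  set n := Fintype.card α with hn
  set f : Multiset ℕ → ℕ := fun m => Nat.gcd (Nat.card S) (cz n m) - t with hf
  rw [CL.Fgs.card_conjClasses_mul_card]
  have h1 : ∀ x : S, Nat.card (Subgroup.centralizer {x}) ≤ t + f (x : Perm α).cycleType := by
    intro x
    have a1 : Nat.card (Subgroup.centralizer {x}) ∣ Nat.card S := Subgroup.card_subgroup_dvd_card _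
    have a2 : Nat.card (Subgroup.centralizer {x}) ∣ cz n (x : Perm α).cycleType := by
      rw [cz, ← Perm.nat_card_centralizer,
        ← Subgroup.card_map_of_injective (K := Subgroup.centralizer {x}) S.subtype_injective]
      refine Subgroup.card_dvd_of_le ?_
      rintro _ ⟨y, hy, rfl⟩
      rw [Subgroup.mem_centralizer_singleton_iff]
      exact congrArg Subtype.val (Subgroup.mem_centralizer_singleton_iff.1 hy)
    have := Nat.le_of_dvd (Nat.gcd_pos_of_pos_left _ Nat.card_pos) (Nat.dvd_gcd a1 a2)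
    simp only [hf]
    omega
  refine (sum_le_sum fun x _ => h1 x).trans ?_
  rw [sum_add_distrib, sum_const, Finset.card_univ, ← Nat.card_eq_fintype_card, smul_eq_mul]
  refine Nat.add_le_add_left ?_ _
  have h2 : ∑ x : S, f (x : Perm α).cycleType ≤ ∑ g : Perm α, f g.cycleType := by
    rw [← sum_subtype (univ.filter (· ∈ S)) (by simp) (fun g : Perm α => f g.cycleType)]
    exact sum_le_sum_of_subset (subset_univ _)
  refine h2.trans ?_
  rw [sum_comp f Perm.cycleType]
  refine (sum_le_sum_of_subset (t := T) fun m hm => ?_).trans (sum_le_sum fun m _ => ?_)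
  · obtain ⟨g, -, rfl⟩ := mem_image.1 hm
    exact hT g
  · rw [smul_eq_mul, Perm.card_of_cycleType]
    refine Nat.mul_le_mul_right _ ?_
    split_ifs
    · exact le_rfl
    · exact Nat.zero_le _

/-- cycle types in degree at most five -/
def T5 : Finset (Multiset ℕ) := {0, {2}, {3}, {4}, {5}, {2, 2}, {3, 2}}

theorem mem_T5 (h : Fintype.card α ≤ 5) (g : Perm α) :
    g.cycleType ∈ T5.filter (fun m => m.sum ≤ Fintype.card α) := by
  have h1 := g.sum_cycleType_le
  refine mem_filter.2 ⟨?_, h1⟩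
  obtain ⟨l, hl, he⟩ := pl_complete 7 11 g.cycleType.sum 5 g.cycleType (by omega) rfl
    (fun a ha => by
      have := Perm.two_le_of_mem_cycleType ha
      have := Multiset.single_le_sum (fun _ _ => Nat.zero_le _) a ha
      unfold ok
      omega)
  have key : ∀ s ∈ List.range 6, ∀ l ∈ pl 7 11 s 5, (∀ a ∈ l, 2 ≤ a) → (l : Multiset ℕ) ∈ T5 := by
    decide +kernel
  rw [← he]
  exact key _ (List.mem_range.2 (by omega)) l hl fun a ha =>
    Perm.two_le_of_mem_cycleType (he ▸ Multiset.mem_coe.2 ha)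

theorem card_dvd_fact : Nat.card S ∣ (Fintype.card α)! := by
  rw [← Fintype.card_perm, ← Nat.card_eq_fintype_card]
  exact Subgroup.card_subgroup_dvd_card S

theorem small4 (h : Fintype.card α = 4) (h12 : 12 ∣ Nat.card S) : Nat.card (ConjClasses S) ≤ 5 := by
  have h1 := class_sum S 4 _ (mem_T5 (by omega))
  have h2 := card_dvd_fact S
  rw [h] at h1 h2
  have key : ∀ m ∈ Nat.divisors 24, 12 ∣ m → m * 4 + ∑ τ ∈ T5.filter (fun m => m.sum ≤ 4),
      (4 ! / cz 4 τ) * (Nat.gcd m (cz 4 τ) - 4) < 6 * m := by decide +kernel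
  have h3 := key _ (Nat.mem_divisors.2 ⟨h2, by norm_num⟩) h12
  have := lt_of_mul_lt_mul_right (h1.trans_lt h3) (Nat.zero_le _)
  omega

theorem small5 (h : Fintype.card α = 5) (h5 : 5 ∣ Nat.card S) : Nat.card (ConjClasses S) ≤ 7 := by
  have h1 := class_sum S 6 _ (mem_T5 (by omega))
  have h2 := card_dvd_fact S
  rw [h] at h1 h2
  have key : ∀ m ∈ Nat.divisors 120, 5 ∣ m → m * 6 + ∑ τ ∈ T5.filter (fun m => m.sum ≤ 5),
      (5 ! / cz 5 τ) * (Nat.gcd m (cz 5 τ) - 6) < 8 * m := by decide +kernel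
  have h3 := key _ (Nat.mem_divisors.2 ⟨h2, by norm_num⟩) h5
  have := lt_of_mul_lt_mul_right (h1.trans_lt h3) (Nat.zero_le _)
  omega

end CL.KT
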