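import Cfsg.Agent.Base
import Mathlib.GroupTheory.Perm.Basic
import Mathlib.Algebra.Group.Subgroup.Basic
import Mathlib.Algebra.Group.ConjFinite
import Mathlib.Data.Fintype.Perm
import Mathlib.Algebra.Order.BigOperators.Group.Finset
import Mathlib.SetTheory.Cardinal.Finite
import Mathlib.Tactic

set_option autoImplicit false

/-! Class number of a permutation group: `k(S) ≤ 2 ^ (n - number of orbits)`, by building an
element one value at a time and telescoping the number of orbits of pointwise stabilisers. -/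

namespace CL.KT

open Finset Equiv

variable {α : Type*} [Fintype α] [DecidableEq α] (S : Subgroup (Perm α))

open Classical in
/-- orbit of `x` under the pointwise stabiliser of `A` in `S` -/
noncomputable def O (A : Finset α) (x : α) : Finset α :=
  univ.filter (fun y => ∃ h : Perm α, h ∈ S ∧ (∀ a ∈ A, h a = a) ∧ h x = y)

/-- number of orbits of the pointwise stabiliser of `A` -/
noncomputable def orb (A : Finset α) : ℕ := (univ.image (O S A)).card

theorem mem_O {A : Finset α} {x y : α} :
    y ∈ O S A x ↔ ∃ h : Perm α, h ∈ S ∧ (∀ a ∈ A, h a = a) ∧ h x = y := by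
  simp [O]

theorem self_mem_O (A : Finset α) (x : α) : x ∈ O S A x :=
  (mem_O S).2 ⟨1, S.one_mem, fun _ _ => rfl, rfl⟩

theorem O_symm {A : Finset α} {x y : α} (h : y ∈ O S A x) : x ∈ O S A y := by
  obtain ⟨g, hg, hA, rfl⟩ := (mem_O S).1 h
  refine (mem_O S).2 ⟨g⁻¹, S.inv_mem hg, fun a ha => ?_, by simp⟩
  rw [Perm.inv_eq_iff_eq]; exact (hA a ha).symm

theorem O_trans {A : Finset α} {x y z : α} (h : y ∈ O S A x) (h' : z ∈ O S A y) :
    z ∈ O S A x := by
  obtain ⟨g, hg, hA, rfl⟩ := (mem_O S).1 h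
  obtain ⟨k, hk, hA', rfl⟩ := (mem_O S).1 h'
  refine (mem_O S).2 ⟨k * g, S.mul_mem hk hg, fun a ha => ?_, rfl⟩
  rw [Perm.mul_apply, hA a ha, hA' a ha]

theorem O_eq {A : Finset α} {x y : α} (h : y ∈ O S A x) : O S A y = O S A x := by
  ext z
  exact ⟨fun hz => O_trans S h hz, fun hz => O_trans S (O_symm S h) hz⟩

theorem O_mono {A B : Finset α} (hAB : A ⊆ B) (x : α) : O S B x ⊆ O S A x := by
  intro y hy
  obtain ⟨g, hg, hB, rfl⟩ := (mem_O S).1 hy
  exact (mem_O S).2 ⟨g, hg, fun a ha => hB a (hAB ha), rfl⟩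

theorem orb_le (A : Finset α) : orb S A ≤ Fintype.card α :=
  card_image_le.trans (by simp)

theorem O_conj {A : Finset α} {g : Perm α} (hg : g ∈ S) (x : α) :
    O S (A.image g) (g x) = (O S A x).image g := by
  ext y
  rw [mem_image, mem_O]
  constructor
  · rintro ⟨h, hh, hA, rfl⟩
    refine ⟨g⁻¹ (h (g x)), (mem_O S).2 ⟨g⁻¹ * h * g,
      S.mul_mem (S.mul_mem (S.inv_mem hg) hh) hg, fun a ha => ?_, rfl⟩, by simp⟩
    simp [Perm.mul_apply, hA (g a) (mem_image_of_mem _ ha)]
  · rintro ⟨z, hz, rfl⟩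
    obtain ⟨h, hh, hA, rfl⟩ := (mem_O S).1 hz
    refine ⟨g * h * g⁻¹, S.mul_mem (S.mul_mem hg hh) (S.inv_mem hg), fun b hb => ?_, by simp⟩
    obtain ⟨a, ha, rfl⟩ := mem_image.1 hb
    simp [Perm.mul_apply, hA a ha]

theorem orb_conj {A : Finset α} {g : Perm α} (hg : g ∈ S) :
    orb S (A.image g) = orb S A := by
  unfold orb
  have h1 : univ.image (O S (A.image g)) =
      (univ.image (O S A)).image (fun s : Finset α => s.image g) := by
    ext s
    simp only [mem_image, mem_univ, true_and, exists_exists_eq_and]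
    constructor
    · rintro ⟨y, rfl⟩
      refine ⟨g⁻¹ y, ?_⟩
      rw [← O_conj S hg]; simp
    · rintro ⟨x, rfl⟩
      exact ⟨g x, O_conj S hg x⟩
  rw [h1, card_image_of_injective _ (image_injective g.injective)]

theorem card_image_O_le {B T : Finset α} (hBT : B ⊆ T) (D : Finset α) :
    (D.image (O S B)).card ≤ (D.image (O S T)).card := by
  have h1 : D.image (O S B) = (D.image (O S T)).image (fun s => s.biUnion (O S B)) := by
    rw [image_image]
    refine image_congr fun x _ => ?_
    ext y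
    simp only [Function.comp, mem_biUnion]
    constructor
    · intro hy; exact ⟨x, self_mem_O S T x, hy⟩
    · rintro ⟨z, hz, hy⟩; exact O_trans S (O_mono S hBT x hz) hy
  rw [h1]; exact card_image_le

theorem orb_split {B T : Finset α} (hBT : B ⊆ T) (z : α) :
    orb S B + ((O S B z).image (O S T)).card ≤ orb S T + 1 := by
  set Γ := O S B z with hΓ
  have h1 : orb S B ≤ ((univ \ Γ).image (O S B)).card + 1 := by
    have : univ.image (O S B) ⊆ insert Γ ((univ \ Γ).image (O S B)) := by
      intro s hs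
      obtain ⟨x, -, rfl⟩ := mem_image.1 hs
      by_cases hx : x ∈ Γ
      · rw [O_eq S hx]; exact mem_insert_self _ _
      · exact mem_insert_of_mem (mem_image_of_mem _ (by simpa using hx))
    exact (card_le_card this).trans (card_insert_le _ _)
  have h2 := card_image_O_le S hBT (univ \ Γ)
  have h3 : Disjoint ((univ \ Γ).image (O S T)) (Γ.image (O S T)) := by
    rw [disjoint_left]
    intro s hs hs'
    obtain ⟨x, hx, rfl⟩ := mem_image.1 hs
    obtain ⟨y, hy, hxy⟩ := mem_image.1 hs'
    have : x ∈ O S T y := hxy ▸ self_mem_O S T x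
    exact (mem_sdiff.1 hx).2 (O_trans S hy (O_mono S hBT y this))
  have h4 : ((univ \ Γ).image (O S T)).card + (Γ.image (O S T)).card ≤ orb S T := by
    rw [← card_union_of_disjoint h3, ← image_union]
    exact card_le_card (image_subset_image (subset_univ _))
  omega

open Classical in
/-- the classes of `S` meeting the set of elements agreeing with `g` on `A` -/
noncomputable def X (A : Finset α) (g : Perm α) : Finset (ConjClasses S) :=
  (univ.filter (fun h : S => ∀ a ∈ A, (h : Perm α) a = g a)).image ConjClasses.mk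

theorem mem_X {A : Finset α} {g : Perm α} {c : ConjClasses S} :
    c ∈ X S A g ↔ ∃ h : S, (∀ a ∈ A, (h : Perm α) a = g a) ∧ ConjClasses.mk h = c := by
  simp [X]

theorem main (k : ℕ) : ∀ (A : Finset α) (g : Perm α) (β : α), g ∈ S →
    Fintype.card α - A.card = k → (∀ a ∈ A, g a ∈ insert β A) →
    (X S A g).card ≤ 2 ^ (Fintype.card α - orb S A) := by
  classical
  induction k with
  | zero =>
    intro A g β hg hk _
    have hA : A = univ := by
      apply eq_univ_of_card
      have := card_le_univ A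
      omega
    refine le_trans (card_le_one.2 ?_) Nat.one_le_two_pow
    intro c hc d hd
    obtain ⟨h, hh, rfl⟩ := (mem_X S).1 hc
    obtain ⟨h', hh', rfl⟩ := (mem_X S).1 hd
    congr 1
    ext a
    rw [hh a (hA ▸ mem_univ a), hh' a (hA ▸ mem_univ a)]
  | succ k ih =>
    intro A g β0 hg hk hβ0
    obtain ⟨β, hβA, hβ⟩ : ∃ β, β ∉ A ∧ ∀ a ∈ A, g a ∈ insert β A := by
      by_cases h0 : β0 ∈ A
      · have : A ≠ univ := by rintro rfl; simp at hk
        obtain ⟨β, hβ⟩ : ∃ β, β ∉ A := by
          by_contra hc; push Not at hc; exact this (eq_univ_of_forall hc)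
        refine ⟨β, hβ, fun a ha => ?_⟩
        have := hβ0 a ha
        rw [insert_eq_of_mem h0] at this
        exact mem_insert_of_mem this
      · exact ⟨β0, h0, hβ0⟩
    set T := insert β A with hT
    have hBT : A.image g ⊆ T := by
      intro b hb
      obtain ⟨a, ha, rfl⟩ := mem_image.1 hb
      exact hβ a ha
    set Γ := O S (A.image g) (g β) with hΓ
    have hsplit := orb_split S hBT (g β)
    rw [orb_conj S hg, ← hΓ] at hsplit
    let Y : Finset α → Finset (ConjClasses S) := fun ω =>
      (univ.filter (fun h : S => (∀ a ∈ A, (h : Perm α) a = g a) ∧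
        O S T ((h : Perm α) β) = ω)).image ConjClasses.mk
    have hsub : X S A g ⊆ (Γ.image (O S T)).biUnion Y := by
      intro c hc
      obtain ⟨h, hh, rfl⟩ := (mem_X S).1 hc
      refine mem_biUnion.2 ⟨O S T ((h : Perm α) β), mem_image_of_mem _ ?_,
        mem_image_of_mem _ (mem_filter.2 ⟨mem_univ _, hh, rfl⟩)⟩
      refine (mem_O S).2 ⟨h * g⁻¹, S.mul_mem h.2 (S.inv_mem hg), fun b hb => ?_, by simp⟩
      obtain ⟨a, ha, rfl⟩ := mem_image.1 hb
      simp [Perm.mul_apply, hh a ha]
    have hY : ∀ ω, (Y ω).card ≤ 2 ^ (Fintype.card α - orb S T) := by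
      intro ω
      rcases (Y ω).eq_empty_or_nonempty with h0 | ⟨c, hc⟩
      · rw [h0]; simp
      obtain ⟨g1, hg1, -⟩ := mem_image.1 hc
      obtain ⟨-, hg1A, hg1β⟩ := mem_filter.1 hg1
      have hcard : Fintype.card α - T.card = k := by
        rw [hT, card_insert_of_notMem hβA]; omega
      have hT1 : ∀ a ∈ T, (g1 : Perm α) a ∈ insert ((g1 : Perm α) β) T := by
        intro a ha
        rcases mem_insert.1 ha with rfl | ha
        · exact mem_insert_self _ _
        · rw [hg1A a ha]; exact mem_insert_of_mem (hβ a ha)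
      refine le_trans (card_le_card ?_) (ih T g1 _ g1.2 hcard hT1)
      intro d hd
      obtain ⟨h, hh, rfl⟩ := mem_image.1 hd
      obtain ⟨-, hhA, hhβ⟩ := mem_filter.1 hh
      have : (g1 : Perm α) β ∈ O S T ((h : Perm α) β) := by
        rw [hhβ, ← hg1β]; exact self_mem_O S T _
      obtain ⟨u, hu, huT, hu1⟩ := (mem_O S).1 this
      have huT' : ∀ a ∈ T, u⁻¹ a = a := fun a ha => by
        rw [Perm.inv_eq_iff_eq]; exact (huT a ha).symm
      refine (mem_X S).2 ⟨⟨u, hu⟩ * h * ⟨u, hu⟩⁻¹, fun a ha => ?_, ?_⟩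
      · simp only [Subgroup.coe_mul, Subgroup.coe_inv, Perm.mul_apply, huT' a ha]
        rcases mem_insert.1 ha with rfl | ha
        · exact hu1
        · rw [hhA a ha, hg1A a ha, huT _ (hβ a ha)]
      · exact (ConjClasses.mk_eq_mk_iff_isConj.2 (isConj_iff.2 ⟨(⟨u, hu⟩ : S), rfl⟩)).symm
    have h1 : (X S A g).card ≤ (Γ.image (O S T)).card * 2 ^ (Fintype.card α - orb S T) :=
      (card_le_card hsub).trans (card_biUnion_le_card_mul _ _ _ fun ω _ => hY ω)
    set r := (Γ.image (O S T)).card with hr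
    have hr1 : 1 ≤ r := card_pos.2 ⟨_, mem_image_of_mem _ (self_mem_O S _ (g β))⟩
    have hr2 : r ≤ 2 ^ (r - 1) := by
      have := @Nat.lt_two_pow_self (r - 1)
      omega
    have hT' := orb_le S T
    calc (X S A g).card ≤ r * 2 ^ (Fintype.card α - orb S T) := h1
      _ ≤ 2 ^ (r - 1) * 2 ^ (Fintype.card α - orb S T) := Nat.mul_le_mul_right _ hr2
      _ = 2 ^ (r - 1 + (Fintype.card α - orb S T)) := (pow_add _ _ _).symm
      _ ≤ 2 ^ (Fintype.card α - orb S A) := Nat.pow_le_pow_right (by norm_num) (by omega)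

theorem card_conjClasses_le_orb (β : α) :
    Nat.card (ConjClasses S) ≤ 2 ^ (Fintype.card α - orb S ∅) := by
  classical
  have h := main S _ ∅ 1 β S.one_mem rfl (by simp)
  have h2 : X S ∅ 1 = univ := by
    apply eq_univ_of_forall
    intro c
    obtain ⟨x, rfl⟩ := ConjClasses.exists_rep c
    exact (mem_X S).2 ⟨x, by simp, rfl⟩
  rw [h2, card_univ, ← Nat.card_eq_fintype_card] at h
  exact h

theorem card_conjClasses_le : Nat.card (ConjClasses S) ≤ 2 ^ (Fintype.card α - 1) := by
  rcases isEmpty_or_nonempty α with h | ⟨⟨β⟩⟩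
  · refine le_trans ?_ Nat.one_le_two_pow
    refine Finite.card_le_one_iff_subsingleton.2 ⟨fun c d => ?_⟩
    obtain ⟨x, rfl⟩ := ConjClasses.exists_rep c
    obtain ⟨y, rfl⟩ := ConjClasses.exists_rep d
    congr 1
    ext a
    exact isEmptyElim a
  · refine (card_conjClasses_le_orb S β).trans (Nat.pow_le_pow_right (by norm_num) ?_)
    have : 1 ≤ orb S ∅ := card_pos.2 ⟨_, mem_image_of_mem _ (mem_univ β)⟩
    omega

end CL.KT
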